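import Cfsg.Agent.H421.GLn.NeckGL
import Cfsg.Agent.H614.GLn.IrrLab

/-!
# GB1: the irreducible characters of `GL_n(F)` are in bijection with the labels
-/

set_option autoImplicit false

open scoped MatrixGroups

namespace Cfsg.Agent.H421.GLn

open Cfsg Cfsg.Agent Cfsg.Agent.H614 Cfsg.Agent.H614.GLn Cfsg.Agent.H614.GLn.RSt Cfsg.Agent.H577.GLB.Std Cfsg.Agent.H577.GLB.Real Cfsg.Agent.H623.GLn

universe u w

variable {F : Type u} [Field F] {K : Type w} [Field K] [Algebra F K] {θ : K →*₀ ℂ} {N M : ℕ} [NeZero M]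

/-- integrality of the complete homogeneous class functions -/
theorem hInt (ctx : Ctx F θ N M) : H614.GLn.RSt.HInt F θ N M := by
  intro c j hj
  have hQ : IsUnit (((Nat.card F : ℤ)) : ZMod M) := isUnit_q ctx
  have hd := perZ_pos (Q := (Nat.card F : ℤ)) hQ c
  have hT : TorZ (Nat.card F : ℤ) M (perZ (Nat.card F) M c) c := (H614.GLn.RSt.torZ_iff _ _).2 dvd_rfl
  rw [← piA_hRS ctx hd hT hj]
  exact hRS_vc ctx hd hT hj

/-- **GB1**: labels of the irreducible characters of `GL_n(F)`. -/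
theorem isLab_bij (ctx : Ctx F θ N M) {m n : ℕ} (hn : n ≤ N) (hm : n ≤ m) :
    (∀ χ : IrrCharacter (GL (Fin n) F), ∃! t : LabZ (Nat.card F) M m n, IsLab θ M m n χ t) ∧
    (∀ t : LabZ (Nat.card F) M m n, ∃! χ : IrrCharacter (GL (Fin n) F), IsLab θ M m n χ t) :=
  H614.GLn.RSt.isLab_bij_of ctx (hInt ctx) hn hm

end Cfsg.Agent.H421.GLn
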